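import Cfsg.Agent.Fi22Rep78.Data

/-! Generated: relation checks. -/

set_option autoImplicit false

namespace CfsgLib.Fi22Rep78

theorem rel_aa : checkWord [g_a, g_a] y_spider_3 y_spider_3 = true := by decide +kernel

theorem rel_ae : checkWord [g_a, g_e, g_a, g_e] y_spider_3 y_spider_3 = true := by decide +kernel

theorem rel_ai : checkWord [g_a, g_i, g_a, g_i] y_spider_3 y_spider_3 = true := by decide +kernel

theorem rel_be : checkWord [g_b, g_e, g_b, g_e] y_spider_3 y_spider_3 = true := by decide +kernel

theorem rel_bi : checkWord [g_b, g_i, g_b, g_i] y_spider_3 y_spider_3 = true := by decide +kernel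

theorem rel_cf : checkWord [g_c, g_f, g_c, g_f] y_spider_3 y_spider_3 = true := by decide +kernel

theorem rel_dd : checkWord [g_d, g_d] y_spider_3 y_spider_3 = true := by decide +kernel

theorem rel_dh : checkWord [g_d, g_h, g_d, g_h, g_d, g_h] y_spider_3 y_spider_3 = true := by decide +kernel

theorem rel_eg : checkWord [g_e, g_g, g_e, g_g] y_spider_3 y_spider_3 = true := by decide +kernel

theorem rel_fg : checkWord [g_f, g_g, g_f, g_g, g_f, g_g] y_spider_3 y_spider_3 = true := by decide +kernel

theorem rel_gh : checkWord [g_g, g_h, g_g, g_h] y_spider_3 y_spider_3 = true := by decide +kernel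

theorem rel_ii : checkWord [g_i, g_i] y_spider_3 y_spider_3 = true := by decide +kernel

theorem pow_spider_3 : checkWord [g_d, g_c, g_b, g_d, g_e, g_f, g_d, g_h, g_i] y_spider_3 y_spider_4 = true := by
  decide +kernel

theorem pow_spider_7 : checkWord [g_d, g_c, g_b, g_d, g_e, g_f, g_d, g_h, g_i] y_spider_7 y_spider_8 = true := by
  decide +kernel

theorem pow_left_1 : checkWord [g_a, g_b, g_c, g_d, g_e, g_f, g_h] y_left_1 y_left_2 = true := by
  decide +kernel

theorem pow_left_5 : checkWord [g_a, g_b, g_c, g_d, g_e, g_f, g_h] y_left_5 y_left_6 = true := by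
  decide +kernel

theorem pow_right_0 : checkWord [g_b, g_c, g_d, g_e, g_f, g_g, g_h] y_spider_3 y_right_1 = true := by
  decide +kernel

theorem pow_right_4 : checkWord [g_b, g_c, g_d, g_e, g_f, g_g, g_h] y_right_4 y_right_5 = true := by
  decide +kernel

theorem pow_right_8 : checkWord [g_b, g_c, g_d, g_e, g_f, g_g, g_h] y_right_8 y_spider_3 = true := by
  decide +kernel

end CfsgLib.Fi22Rep78
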