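import Cfsg.Agent.Fi22Rep78.Data

/-! Generated: relation checks. -/

set_option autoImplicit false

namespace CfsgLib.Fi22Rep78

theorem rel_ab : checkWord [g_a, g_b, g_a, g_b, g_a, g_b] y_spider_3 y_spider_3 = true := by decide +kernel

theorem rel_af : checkWord [g_a, g_f, g_a, g_f] y_spider_3 y_spider_3 = true := by decide +kernel

theorem rel_bb : checkWord [g_b, g_b] y_spider_3 y_spider_3 = true := by decide +kernel

theorem rel_bf : checkWord [g_b, g_f, g_b, g_f] y_spider_3 y_spider_3 = true := by decide +kernel

theorem rel_cc : checkWord [g_c, g_c] y_spider_3 y_spider_3 = true := by decide +kernel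

theorem rel_cg : checkWord [g_c, g_g, g_c, g_g] y_spider_3 y_spider_3 = true := by decide +kernel

theorem rel_de : checkWord [g_d, g_e, g_d, g_e, g_d, g_e] y_spider_3 y_spider_3 = true := by decide +kernel

theorem rel_di : checkWord [g_d, g_i, g_d, g_i] y_spider_3 y_spider_3 = true := by decide +kernel

theorem rel_eh : checkWord [g_e, g_h, g_e, g_h] y_spider_3 y_spider_3 = true := by decide +kernel

theorem rel_fh : checkWord [g_f, g_h, g_f, g_h] y_spider_3 y_spider_3 = true := by decide +kernel

theorem rel_gi : checkWord [g_g, g_i, g_g, g_i] y_spider_3 y_spider_3 = true := by decide +kernel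

theorem pow_spider_0 : checkWord [g_d, g_c, g_b, g_d, g_e, g_f, g_d, g_h, g_i] y_one y_spider_1 = true := by
  decide +kernel

theorem pow_spider_4 : checkWord [g_d, g_c, g_b, g_d, g_e, g_f, g_d, g_h, g_i] y_spider_4 y_spider_5 = true := by
  decide +kernel

theorem pow_spider_8 : checkWord [g_d, g_c, g_b, g_d, g_e, g_f, g_d, g_h, g_i] y_spider_8 y_spider_9 = true := by
  decide +kernel

theorem pow_left_2 : checkWord [g_a, g_b, g_c, g_d, g_e, g_f, g_h] y_left_2 y_left_3 = true := by
  decide +kernel

theorem pow_left_6 : checkWord [g_a, g_b, g_c, g_d, g_e, g_f, g_h] y_left_6 y_left_7 = true := by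
  decide +kernel

theorem pow_right_1 : checkWord [g_b, g_c, g_d, g_e, g_f, g_g, g_h] y_right_1 y_right_2 = true := by
  decide +kernel

theorem pow_right_5 : checkWord [g_b, g_c, g_d, g_e, g_f, g_g, g_h] y_right_5 y_right_6 = true := by
  decide +kernel

end CfsgLib.Fi22Rep78
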