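import Cfsg.Agent.Fi22Rep78.Data

/-! Generated: relation checks. -/

set_option autoImplicit false

namespace CfsgLib.Fi22Rep78

theorem rel_ac : checkWord [g_a, g_c, g_a, g_c] y_spider_3 y_spider_3 = true := by decide +kernel

theorem rel_ag : checkWord [g_a, g_g, g_a, g_g] y_spider_3 y_spider_3 = true := by decide +kernel

theorem rel_bc : checkWord [g_b, g_c, g_b, g_c, g_b, g_c] y_spider_3 y_spider_3 = true := by decide +kernel

theorem rel_bg : checkWord [g_b, g_g, g_b, g_g] y_spider_3 y_spider_3 = true := by decide +kernel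

theorem rel_cd : checkWord [g_c, g_d, g_c, g_d, g_c, g_d] y_spider_3 y_spider_3 = true := by decide +kernel

theorem rel_ch : checkWord [g_c, g_h, g_c, g_h] y_spider_3 y_spider_3 = true := by decide +kernel

theorem rel_df : checkWord [g_d, g_f, g_d, g_f] y_spider_3 y_spider_3 = true := by decide +kernel

theorem rel_ee : checkWord [g_e, g_e] y_spider_3 y_spider_3 = true := by decide +kernel

theorem rel_ei : checkWord [g_e, g_i, g_e, g_i] y_spider_3 y_spider_3 = true := by decide +kernel

theorem rel_fi : checkWord [g_f, g_i, g_f, g_i] y_spider_3 y_spider_3 = true := by decide +kernel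

theorem rel_hh : checkWord [g_h, g_h] y_spider_3 y_spider_3 = true := by decide +kernel

theorem pow_spider_1 : checkWord [g_d, g_c, g_b, g_d, g_e, g_f, g_d, g_h, g_i] y_spider_1 y_spider_2 = true := by
  decide +kernel

theorem pow_spider_5 : checkWord [g_d, g_c, g_b, g_d, g_e, g_f, g_d, g_h, g_i] y_spider_5 y_spider_6 = true := by
  decide +kernel

theorem pow_spider_9 : checkWord [g_d, g_c, g_b, g_d, g_e, g_f, g_d, g_h, g_i] y_spider_9 y_one = true := by
  decide +kernel

theorem pow_left_3 : checkWord [g_a, g_b, g_c, g_d, g_e, g_f, g_h] y_left_3 y_left_4 = true := by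
  decide +kernel

theorem pow_left_7 : checkWord [g_a, g_b, g_c, g_d, g_e, g_f, g_h] y_left_7 y_left_8 = true := by
  decide +kernel

theorem pow_right_2 : checkWord [g_b, g_c, g_d, g_e, g_f, g_g, g_h] y_right_2 y_right_3 = true := by
  decide +kernel

theorem pow_right_6 : checkWord [g_b, g_c, g_d, g_e, g_f, g_g, g_h] y_right_6 y_right_7 = true := by
  decide +kernel

end CfsgLib.Fi22Rep78
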