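import Cfsg.Agent.Fi22Rep78.Data

/-! Generated: relation checks. -/

set_option autoImplicit false

namespace CfsgLib.Fi22Rep78

theorem rel_ad : checkWord [g_a, g_d, g_a, g_d] y_spider_3 y_spider_3 = true := by decide +kernel

theorem rel_ah : checkWord [g_a, g_h, g_a, g_h] y_spider_3 y_spider_3 = true := by decide +kernel

theorem rel_bd : checkWord [g_b, g_d, g_b, g_d] y_spider_3 y_spider_3 = true := by decide +kernel

theorem rel_bh : checkWord [g_b, g_h, g_b, g_h] y_spider_3 y_spider_3 = true := by decide +kernel

theorem rel_ce : checkWord [g_c, g_e, g_c, g_e] y_spider_3 y_spider_3 = true := by decide +kernel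

theorem rel_ci : checkWord [g_c, g_i, g_c, g_i] y_spider_3 y_spider_3 = true := by decide +kernel

theorem rel_dg : checkWord [g_d, g_g, g_d, g_g] y_spider_3 y_spider_3 = true := by decide +kernel

theorem rel_ef : checkWord [g_e, g_f, g_e, g_f, g_e, g_f] y_spider_3 y_spider_3 = true := by decide +kernel

theorem rel_ff : checkWord [g_f, g_f] y_spider_3 y_spider_3 = true := by decide +kernel

theorem rel_gg : checkWord [g_g, g_g] y_spider_3 y_spider_3 = true := by decide +kernel

theorem rel_hi : checkWord [g_h, g_i, g_h, g_i, g_h, g_i] y_spider_3 y_spider_3 = true := by decide +kernel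

theorem pow_spider_2 : checkWord [g_d, g_c, g_b, g_d, g_e, g_f, g_d, g_h, g_i] y_spider_2 y_spider_3 = true := by
  decide +kernel

theorem pow_spider_6 : checkWord [g_d, g_c, g_b, g_d, g_e, g_f, g_d, g_h, g_i] y_spider_6 y_spider_7 = true := by
  decide +kernel

theorem pow_left_0 : checkWord [g_a, g_b, g_c, g_d, g_e, g_f, g_h] y_spider_3 y_left_1 = true := by
  decide +kernel

theorem pow_left_4 : checkWord [g_a, g_b, g_c, g_d, g_e, g_f, g_h] y_left_4 y_left_5 = true := by
  decide +kernel

theorem pow_left_8 : checkWord [g_a, g_b, g_c, g_d, g_e, g_f, g_h] y_left_8 y_spider_3 = true := by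
  decide +kernel

theorem pow_right_3 : checkWord [g_b, g_c, g_d, g_e, g_f, g_g, g_h] y_right_3 y_right_4 = true := by
  decide +kernel

theorem pow_right_7 : checkWord [g_b, g_c, g_d, g_e, g_f, g_g, g_h] y_right_7 y_right_8 = true := by
  decide +kernel

end CfsgLib.Fi22Rep78
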