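import Cfsg.Agent.Fi22Rep78.Check0
import Cfsg.Agent.Fi22Rep78.Check1
import Cfsg.Agent.Fi22Rep78.Check2
import Cfsg.Agent.Fi22Rep78.Check3
import Cfsg.Agent.CosetEnum.Fi22.Simple

/-!
The presented Fischer group Fi22 as a matrix group of degree 78 over the field with 13 elements.
-/

set_option autoImplicit false

namespace CfsgLib.Fi22Rep78

open Cfsg.Spor

theorem y_one_rows :
    ((List.range 78).all fun i => Nat.beq (y_one.get i) (16 ^ i)) = true := by decide +kernel

theorem hexMat_one : hexMat y_one = 1 := by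
  ext i k
  have h := List.all_eq_true.1 y_one_rows (i : ℕ) (List.mem_range.2 i.isLt)
  simp only [hexMat, Matrix.of_apply, hexRow]
  rw [Nat.eq_of_beq_eq_true h, Matrix.one_apply]
  rcases lt_trichotomy (i : ℕ) (k : ℕ) with hlt | he | hgt
  · rw [if_neg (fun e => by rw [e] at hlt; exact lt_irrefl _ hlt),
      Nat.div_eq_of_lt (Nat.pow_lt_pow_right (by norm_num) hlt)]
    simp
  · rw [if_pos (Fin.ext he), he, Nat.div_self (by positivity)]
    simp
  · rw [if_neg (fun e => by rw [e] at hgt; exact lt_irrefl _ hgt),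
      Nat.pow_div hgt.le (by norm_num)]
    obtain ⟨j, hj⟩ : ∃ j, (i : ℕ) - (k : ℕ) = j + 1 := ⟨(i : ℕ) - (k : ℕ) - 1, by omega⟩
    rw [hj, pow_succ, Nat.mul_mod_left]
    simp

theorem word_step {w : List (Trie (List (ℕ × ℕ)))} {Y Z : Trie ℕ} {k : ℕ}
    {M : Matrix (Fin 78) (Fin 78) (ZMod 13)}
    (h : checkWord w Y Z = true) (hY : (w.map mat).prod ^ k * M = hexMat Y) :
    (w.map mat).prod ^ (k + 1) * M = hexMat Z := by
  rw [pow_succ', mul_assoc, hY]
  exact checkWord_sound h

theorem spider_pow : ([g_d, g_c, g_b, g_d, g_e, g_f, g_d, g_h, g_i].map mat).prod ^ 10 = 1 := by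
  have h := (word_step pow_spider_9 (word_step pow_spider_8 (word_step pow_spider_7 (word_step pow_spider_6 (word_step pow_spider_5 (word_step pow_spider_4 (word_step pow_spider_3 (word_step pow_spider_2 (word_step pow_spider_1 (word_step pow_spider_0 (show ([g_d, g_c, g_b, g_d, g_e, g_f, g_d, g_h, g_i].map mat).prod ^ 0 * 1 = hexMat y_one from by rw [pow_zero, one_mul, hexMat_one])))))))))))
  rw [hexMat_one, mul_one] at h
  exact h

theorem base_eq :
    ([g_d, g_c, g_b, g_d, g_e, g_f, g_d, g_h, g_i].map mat).prod ^ 3 = hexMat y_spider_3 := by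
  have h := (word_step pow_spider_2 (word_step pow_spider_1 (word_step pow_spider_0 (show ([g_d, g_c, g_b, g_d, g_e, g_f, g_d, g_h, g_i].map mat).prod ^ 0 * 1 = hexMat y_one from by rw [pow_zero, one_mul, hexMat_one]))))
  rw [mul_one] at h
  exact h

theorem base_cancel {W : Matrix (Fin 78) (Fin 78) (ZMod 13)}
    (h : W * hexMat y_spider_3 = hexMat y_spider_3) : W = 1 := by
  have hinv : hexMat y_spider_3 *
      ([g_d, g_c, g_b, g_d, g_e, g_f, g_d, g_h, g_i].map mat).prod ^ 7 = 1 := by
    rw [← base_eq, ← pow_add]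
    exact spider_pow
  calc W = W * (hexMat y_spider_3 *
        ([g_d, g_c, g_b, g_d, g_e, g_f, g_d, g_h, g_i].map mat).prod ^ 7) := by
        rw [hinv, mul_one]
    _ = 1 := by rw [← mul_assoc, h, hinv]

theorem word_one {w : List (Trie (List (ℕ × ℕ)))}
    (h : checkWord w y_spider_3 y_spider_3 = true) : (w.map mat).prod = 1 :=
  base_cancel (checkWord_sound h)

theorem sq_of {G : Trie (List (ℕ × ℕ))} (h : checkWord [G, G] y_spider_3 y_spider_3 = true) :
    mat G * mat G = 1 := by
  simpa using word_one h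

/-- an involutory matrix as a unit -/
def unitOf (G : Trie (List (ℕ × ℕ))) (h : checkWord [G, G] y_spider_3 y_spider_3 = true) :
    GL (Fin 78) (ZMod 13) :=
  ⟨mat G, mat G, sq_of h, sq_of h⟩

/-- the sparse matrices of the generators -/
def gm : Fi22.Gen → Trie (List (ℕ × ℕ))
  | .a => g_a
  | .b => g_b
  | .c => g_c
  | .d => g_d
  | .e => g_e
  | .f => g_f
  | .g => g_g
  | .h => g_h
  | .i => g_i

theorem gm_sq : ∀ x : Fi22.Gen, checkWord [gm x, gm x] y_spider_3 y_spider_3 = true
  | .a => rel_aa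
  | .b => rel_bb
  | .c => rel_cc
  | .d => rel_dd
  | .e => rel_ee
  | .f => rel_ff
  | .g => rel_gg
  | .h => rel_hh
  | .i => rel_ii

/-- the images of the generators -/
def img (x : Fi22.Gen) : GL (Fin 78) (ZMod 13) := unitOf (gm x) (gm_sq x)

theorem img_val (x : Fi22.Gen) : (img x).val = mat (gm x) := rfl

theorem img_sq (x : Fi22.Gen) : img x * img x = 1 :=
  Units.ext (sq_of (gm_sq x))

theorem prod_val : ∀ l : List Fi22.Gen, ((l.map img).prod).val = ((l.map gm).map mat).prod
  | [] => rfl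
  | x :: l => by
    simp only [List.map_cons, List.prod_cons, Units.val_mul, prod_val l, img_val]

theorem pow_img {x y : Fi22.Gen} {m : ℕ}
    (h : checkWord (List.replicate m [gm x, gm y]).flatten y_spider_3 y_spider_3 = true) :
    (img x * img y) ^ m = 1 := by
  have hw := word_one h
  rw [List.map_flatten, List.map_replicate, List.prod_flatten, List.map_replicate,
    List.prod_replicate] at hw
  refine Units.ext ?_
  rw [Units.val_pow_eq_pow_val, Units.val_mul, img_val, img_val, Units.val_one]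
  simpa only [List.map_cons, List.map_nil, List.prod_cons, List.prod_nil, mul_one] using hw

attribute [local irreducible] img mat hexMat checkWord

theorem pow_flip {x y : Fi22.Gen} {m : ℕ} (h : (img x * img y) ^ m = 1) :
    (img y * img x) ^ m = 1 := by
  have hx : (img x)⁻¹ = img x := inv_eq_of_mul_eq_one_right (img_sq x)
  have hy : (img y)⁻¹ = img y := inv_eq_of_mul_eq_one_right (img_sq y)
  have e : img y * img x = (img x * img y)⁻¹ := ((mul_inv_rev (img x) (img y)).trans
    (congrArg₂ (· * ·) hy hx)).symm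
  rw [e, inv_pow, h, inv_one]

theorem word_rel (l : List Fi22.Gen) (k : ℕ) (hw : ((l.map gm).map mat).prod ^ k = 1) :
    (l.map img).prod ^ k = 1 := by
  refine Units.ext ?_
  rw [Units.val_pow_eq_pow_val, prod_val, hw, Units.val_one]

theorem cox_rel : ∀ x y : Fi22.Gen, (img x * img y) ^ coxLabel Fi22.edges x y = 1
  | .a, .a => pow_img (m := 1) rel_aa
  | .a, .b => pow_img (m := 3) rel_ab
  | .a, .c => pow_img (m := 2) rel_ac
  | .a, .d => pow_img (m := 2) rel_ad
  | .a, .e => pow_img (m := 2) rel_ae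
  | .a, .f => pow_img (m := 2) rel_af
  | .a, .g => pow_img (m := 2) rel_ag
  | .a, .h => pow_img (m := 2) rel_ah
  | .a, .i => pow_img (m := 2) rel_ai
  | .b, .a => pow_flip (pow_img (m := 3) rel_ab)
  | .b, .b => pow_img (m := 1) rel_bb
  | .b, .c => pow_img (m := 3) rel_bc
  | .b, .d => pow_img (m := 2) rel_bd
  | .b, .e => pow_img (m := 2) rel_be
  | .b, .f => pow_img (m := 2) rel_bf
  | .b, .g => pow_img (m := 2) rel_bg
  | .b, .h => pow_img (m := 2) rel_bh
  | .b, .i => pow_img (m := 2) rel_bi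
  | .c, .a => pow_flip (pow_img (m := 2) rel_ac)
  | .c, .b => pow_flip (pow_img (m := 3) rel_bc)
  | .c, .c => pow_img (m := 1) rel_cc
  | .c, .d => pow_img (m := 3) rel_cd
  | .c, .e => pow_img (m := 2) rel_ce
  | .c, .f => pow_img (m := 2) rel_cf
  | .c, .g => pow_img (m := 2) rel_cg
  | .c, .h => pow_img (m := 2) rel_ch
  | .c, .i => pow_img (m := 2) rel_ci
  | .d, .a => pow_flip (pow_img (m := 2) rel_ad)
  | .d, .b => pow_flip (pow_img (m := 2) rel_bd)
  | .d, .c => pow_flip (pow_img (m := 3) rel_cd)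
  | .d, .d => pow_img (m := 1) rel_dd
  | .d, .e => pow_img (m := 3) rel_de
  | .d, .f => pow_img (m := 2) rel_df
  | .d, .g => pow_img (m := 2) rel_dg
  | .d, .h => pow_img (m := 3) rel_dh
  | .d, .i => pow_img (m := 2) rel_di
  | .e, .a => pow_flip (pow_img (m := 2) rel_ae)
  | .e, .b => pow_flip (pow_img (m := 2) rel_be)
  | .e, .c => pow_flip (pow_img (m := 2) rel_ce)
  | .e, .d => pow_flip (pow_img (m := 3) rel_de)
  | .e, .e => pow_img (m := 1) rel_ee
  | .e, .f => pow_img (m := 3) rel_ef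
  | .e, .g => pow_img (m := 2) rel_eg
  | .e, .h => pow_img (m := 2) rel_eh
  | .e, .i => pow_img (m := 2) rel_ei
  | .f, .a => pow_flip (pow_img (m := 2) rel_af)
  | .f, .b => pow_flip (pow_img (m := 2) rel_bf)
  | .f, .c => pow_flip (pow_img (m := 2) rel_cf)
  | .f, .d => pow_flip (pow_img (m := 2) rel_df)
  | .f, .e => pow_flip (pow_img (m := 3) rel_ef)
  | .f, .f => pow_img (m := 1) rel_ff
  | .f, .g => pow_img (m := 3) rel_fg
  | .f, .h => pow_img (m := 2) rel_fh
  | .f, .i => pow_img (m := 2) rel_fi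
  | .g, .a => pow_flip (pow_img (m := 2) rel_ag)
  | .g, .b => pow_flip (pow_img (m := 2) rel_bg)
  | .g, .c => pow_flip (pow_img (m := 2) rel_cg)
  | .g, .d => pow_flip (pow_img (m := 2) rel_dg)
  | .g, .e => pow_flip (pow_img (m := 2) rel_eg)
  | .g, .f => pow_flip (pow_img (m := 3) rel_fg)
  | .g, .g => pow_img (m := 1) rel_gg
  | .g, .h => pow_img (m := 2) rel_gh
  | .g, .i => pow_img (m := 2) rel_gi
  | .h, .a => pow_flip (pow_img (m := 2) rel_ah)
  | .h, .b => pow_flip (pow_img (m := 2) rel_bh)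
  | .h, .c => pow_flip (pow_img (m := 2) rel_ch)
  | .h, .d => pow_flip (pow_img (m := 3) rel_dh)
  | .h, .e => pow_flip (pow_img (m := 2) rel_eh)
  | .h, .f => pow_flip (pow_img (m := 2) rel_fh)
  | .h, .g => pow_flip (pow_img (m := 2) rel_gh)
  | .h, .h => pow_img (m := 1) rel_hh
  | .h, .i => pow_img (m := 3) rel_hi
  | .i, .a => pow_flip (pow_img (m := 2) rel_ai)
  | .i, .b => pow_flip (pow_img (m := 2) rel_bi)
  | .i, .c => pow_flip (pow_img (m := 2) rel_ci)
  | .i, .d => pow_flip (pow_img (m := 2) rel_di)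
  | .i, .e => pow_flip (pow_img (m := 2) rel_ei)
  | .i, .f => pow_flip (pow_img (m := 2) rel_fi)
  | .i, .g => pow_flip (pow_img (m := 2) rel_gi)
  | .i, .h => pow_flip (pow_img (m := 3) rel_hi)
  | .i, .i => pow_img (m := 1) rel_ii

theorem spider_rel : (img .d * img .c * img .b * img .d * img .e * img .f * img .d * img .h * img .i) ^ 10 = (1 : GL (Fin 78) (ZMod 13)) := by
  simpa [mul_assoc] using word_rel [Fi22.Gen.d, Fi22.Gen.c, Fi22.Gen.b, Fi22.Gen.d, Fi22.Gen.e, Fi22.Gen.f, Fi22.Gen.d, Fi22.Gen.h, Fi22.Gen.i] 10 spider_pow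

theorem left_rel : (img .a * img .b * img .c * img .d * img .e * img .f * img .h) ^ 9 = (1 : GL (Fin 78) (ZMod 13)) := by
  have hw : ([g_a, g_b, g_c, g_d, g_e, g_f, g_h].map mat).prod ^ 9 = 1 := base_cancel (word_step pow_left_8 (word_step pow_left_7 (word_step pow_left_6 (word_step pow_left_5 (word_step pow_left_4 (word_step pow_left_3 (word_step pow_left_2 (word_step pow_left_1 (word_step pow_left_0 (show _ ^ 0 * hexMat y_spider_3 = hexMat y_spider_3 from by rw [pow_zero, one_mul]))))))))))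
  simpa [mul_assoc] using word_rel [Fi22.Gen.a, Fi22.Gen.b, Fi22.Gen.c, Fi22.Gen.d, Fi22.Gen.e, Fi22.Gen.f, Fi22.Gen.h] 9 hw

theorem right_rel : (img .b * img .c * img .d * img .e * img .f * img .g * img .h) ^ 9 = (1 : GL (Fin 78) (ZMod 13)) := by
  have hw : ([g_b, g_c, g_d, g_e, g_f, g_g, g_h].map mat).prod ^ 9 = 1 := base_cancel (word_step pow_right_8 (word_step pow_right_7 (word_step pow_right_6 (word_step pow_right_5 (word_step pow_right_4 (word_step pow_right_3 (word_step pow_right_2 (word_step pow_right_1 (word_step pow_right_0 (show _ ^ 0 * hexMat y_spider_3 = hexMat y_spider_3 from by rw [pow_zero, one_mul]))))))))))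
  simpa [mul_assoc] using word_rel [Fi22.Gen.b, Fi22.Gen.c, Fi22.Gen.d, Fi22.Gen.e, Fi22.Gen.f, Fi22.Gen.g, Fi22.Gen.h] 9 hw

theorem img_rels : ∀ r ∈ coxRelators Fi22.edges ∪ {r | r ∈ Fi22.extra},
    FreeGroup.lift img r = 1 := by
  rintro r (⟨x, -, y, -, rfl⟩ | hr)
  · simpa using cox_rel x y
  · simp only [Fi22.extra, Set.mem_setOf_eq, List.mem_cons, List.not_mem_nil, or_false] at hr
    rcases hr with rfl | rfl | rfl
    · simpa using spider_rel
    · simpa using left_rel
    · simpa using right_rel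

/-- the representation -/
def rep : Fi22 →* GL (Fin 78) (ZMod 13) := PresentedGroup.toGroup img_rels

theorem g_a_row : Nat.beq ((g_a.get 1).length) 1 = true ∧ (g_a.get 1) = [(1, 12)] := by
  decide +kernel

theorem rep_a_ne : rep (PresentedGroup.of Fi22.Gen.a) ≠ 1 := by
  rw [rep, PresentedGroup.toGroup.of]
  intro h
  have hv : (img Fi22.Gen.a).val = mat g_a := img_val _
  have h1 := congrArg Units.val h
  rw [hv, Units.val_one] at h1
  have h2 := congrFun (congrFun h1 (1 : Fin 78)) (1 : Fin 78)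
  rw [Matrix.one_apply_eq] at h2
  unfold mat at h2
  simp only [Matrix.of_apply, Fin.val_one, g_a_row.2, sparseRow] at h2
  revert h2
  simp only [Pi.add_apply, Pi.zero_apply, add_zero]
  decide

theorem rep_injective : Function.Injective rep := by
  have := CfsgLib.CosetEnum.Fi22.simple
  rw [← MonoidHom.ker_eq_bot_iff]
  refine rep.normal_ker.eq_bot_or_eq_top.resolve_right fun h => rep_a_ne ?_
  rw [← MonoidHom.mem_ker, h]
  exact Subgroup.mem_top _

end CfsgLib.Fi22Rep78
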