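import Mathlib

/-!
Products of sparse matrices over `ZMod 13`, computed on packed rows.

A row of 78 entries is packed into one natural number in base `2^80`; a sparse matrix acts by
taking combinations of packed rows, so a word of at most ten letters never overflows.
-/

set_option autoImplicit false

namespace CfsgLib.Fi22Rep78

/-- binary tries indexed by the low bits first -/
inductive Trie (α : Type) where
  | leaf (a : α)
  | node (l r : Trie α)

/-- lookup -/
def Trie.get {α : Type} : Trie α → ℕ → α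
  | .leaf a, _ => a
  | .node l r, i => bif Nat.beq (i % 2) 0 then Trie.get l (i / 2) else Trie.get r (i / 2)

/-- pointwise map -/
def Trie.map {α β : Type} (f : α → β) : Trie α → Trie β
  | .leaf a => .leaf (f a)
  | .node l r => .node (Trie.map f l) (Trie.map f r)

theorem Trie.get_map {α β : Type} (f : α → β) (t : Trie α) (i : ℕ) :
    (t.map f).get i = f (t.get i) := by
  induction t generalizing i with
  | leaf a => rfl
  | node l r hl hr =>
    simp only [Trie.map, Trie.get]
    cases Nat.beq (i % 2) 0 <;> simp [hl, hr]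

/-- the slot size -/
abbrev Slot : ℕ := 2 ^ 80

/-- widen a row of hexadecimal digits to slots -/
def widen : ℕ → ℕ → ℕ
  | 0, _ => 0
  | m + 1, y => y % 16 + Slot * widen m (y / 16)

/-- compare slots, mod 13, with hexadecimal digits -/
def sameRow : ℕ → ℕ → ℕ → Bool
  | 0, _, _ => true
  | m + 1, n, y => Nat.beq (n % Slot % 13) (y % 16 % 13) && sameRow m (n / Slot) (y / 16)

/-- a combination of packed rows -/
def comb (X : Trie ℕ) : List (ℕ × ℕ) → ℕ
  | [] => 0
  | e :: r => e.2 * X.get (e.1 % 78) + comb X r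

/-- coefficient sum -/
def coeffSum : List (ℕ × ℕ) → ℕ
  | [] => 0
  | e :: r => e.2 + coeffSum r

/-- a bound for all the rows of a sparse matrix -/
def small : Trie (List (ℕ × ℕ)) → Bool
  | .leaf r => Nat.ble (coeffSum r) 192
  | .node l r => small l && small r

theorem small_get : ∀ {G : Trie (List (ℕ × ℕ))}, small G = true → ∀ i, coeffSum (G.get i) ≤ 192
  | .leaf r, h, i => Nat.le_of_ble_eq_true h
  | .node l r, h, i => by
    simp only [small, Bool.and_eq_true] at h
    simp only [Trie.get]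
    cases Nat.beq (i % 2) 0
    · exact small_get h.2 _
    · exact small_get h.1 _

/-- apply a word of sparse matrices to packed rows -/
def evalWord : List (Trie (List (ℕ × ℕ))) → Trie ℕ → Trie ℕ
  | [], X => X
  | G :: w, X => G.map (comb (evalWord w X))

/-- all rows below a bound agree -/
def sameRows (X : Trie ℕ) (Y : Trie ℕ) : ℕ → Bool
  | 0 => true
  | i + 1 => sameRow 78 (X.get i) (Y.get i) && sameRows X Y i

/-- the word sends the rows `Y` to the rows `Z` -/
def checkWord (w : List (Trie (List (ℕ × ℕ)))) (Y Z : Trie ℕ) : Bool :=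
  Nat.ble w.length 9 && w.all small && sameRows (evalWord w (Y.map (widen 78))) Z 78

/-- packing -/
def pack {m : ℕ} (f : Fin m → ℕ) : ℕ := ∑ k : Fin m, f k * Slot ^ (k : ℕ)

theorem pack_succ {m : ℕ} (f : Fin (m + 1) → ℕ) :
    pack f = f 0 + Slot * pack (fun k : Fin m => f k.succ) := by
  unfold pack
  rw [Fin.sum_univ_succ, Finset.mul_sum]
  simp only [Fin.val_zero, pow_zero, mul_one, Fin.val_succ, pow_succ]
  congr 1
  refine Finset.sum_congr rfl fun k _ => ?_
  ring

/-- the matrix row of hexadecimal digits -/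
def hexRow (y : ℕ) (k : Fin 78) : ZMod 13 := ((y / 16 ^ (k : ℕ) % 16 : ℕ) : ZMod 13)

theorem widen_eq : ∀ (m y : ℕ), widen m y = pack (fun k : Fin m => y / 16 ^ (k : ℕ) % 16)
  | 0, y => by simp [widen, pack]
  | m + 1, y => by
    rw [widen, pack_succ, widen_eq m (y / 16)]
    simp [Nat.div_div_eq_div_mul, pow_succ, mul_comm]

theorem sameRow_sound : ∀ (m : ℕ) (f : Fin m → ℕ) (y : ℕ), (∀ k, f k < Slot) →
    sameRow m (pack f) y = true →
    ∀ k : Fin m, (f k : ZMod 13) = ((y / 16 ^ (k : ℕ) % 16 : ℕ) : ZMod 13)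
  | 0, _, _, _, _, k => k.elim0
  | m + 1, f, y, hb, h, k => by
    rw [sameRow, pack_succ, Nat.add_mul_mod_self_left, Nat.mod_eq_of_lt (hb 0),
      Nat.add_mul_div_left _ _ (by norm_num : 0 < Slot), Nat.div_eq_of_lt (hb 0), zero_add,
      Bool.and_eq_true] at h
    obtain ⟨h0, h1⟩ := h
    induction k using Fin.cases with
    | zero =>
      simp only [Fin.val_zero, pow_zero, Nat.div_one]
      exact (ZMod.natCast_eq_natCast_iff _ _ _).2 (Nat.eq_of_beq_eq_true h0)
    | succ j =>
      have := sameRow_sound m (fun i => f i.succ) (y / 16) (fun i => hb _) h1 j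
      simp only [Fin.val_succ, pow_succ]
      rw [this, Nat.div_div_eq_div_mul, mul_comm]

/-- the row vector of a sparse row -/
def sparseRow : List (ℕ × ℕ) → Fin 78 → ZMod 13
  | [] => 0
  | e :: r => Pi.single (⟨e.1 % 78, Nat.mod_lt _ (by norm_num)⟩ : Fin 78) (e.2 : ZMod 13) +
      sparseRow r

/-- the matrix of a sparse matrix -/
def mat (G : Trie (List (ℕ × ℕ))) : Matrix (Fin 78) (Fin 78) (ZMod 13) :=
  Matrix.of fun i => sparseRow (G.get (i : ℕ))

/-- the matrix of hexadecimal rows -/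
def hexMat (Y : Trie ℕ) : Matrix (Fin 78) (Fin 78) (ZMod 13) :=
  Matrix.of fun i => hexRow (Y.get (i : ℕ))

/-- packed rows represent a matrix, with entries below a bound -/
def Repr (X : Trie ℕ) (M : Matrix (Fin 78) (Fin 78) (ZMod 13)) (b : ℕ) : Prop :=
  ∀ i : Fin 78, ∃ f : Fin 78 → ℕ, (∀ k, f k ≤ b) ∧ X.get (i : ℕ) = pack f ∧
    ∀ k, (f k : ZMod 13) = M i k

theorem repr_comb {X : Trie ℕ} {M : Matrix (Fin 78) (Fin 78) (ZMod 13)} {b : ℕ}
    (h : Repr X M b) : ∀ r : List (ℕ × ℕ), ∃ f : Fin 78 → ℕ, (∀ k, f k ≤ coeffSum r * b) ∧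
      comb X r = pack f ∧ ∀ k, (f k : ZMod 13) = Matrix.vecMul (sparseRow r) M k
  | [] => ⟨fun _ => 0, by simp, by simp [comb, pack],
      by simp [sparseRow, Matrix.zero_vecMul]⟩
  | e :: r => by
    obtain ⟨f, hf1, hf2, hf3⟩ := h ⟨e.1 % 78, Nat.mod_lt _ (by norm_num)⟩
    obtain ⟨g, hg1, hg2, hg3⟩ := repr_comb h r
    refine ⟨fun k => e.2 * f k + g k, fun k => ?_, ?_, fun k => ?_⟩
    · rw [coeffSum, add_mul]
      exact add_le_add (Nat.mul_le_mul_left _ (hf1 k)) (hg1 k)
    · simp only [comb]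
      rw [show X.get (e.1 % 78) = pack f from hf2, hg2]
      simp only [pack, Finset.mul_sum, ← Finset.sum_add_distrib, add_mul, mul_assoc]
    · simp only [sparseRow, Matrix.add_vecMul, Pi.add_apply, Nat.cast_add, Nat.cast_mul, hg3,
        hf3, Matrix.single_vecMul, Pi.smul_apply, smul_eq_mul]
      rfl

theorem repr_evalWord {Y : Trie ℕ} : ∀ w : List (Trie (List (ℕ × ℕ))),
    (w.all small) = true →
      Repr (evalWord w (Y.map (widen 78))) ((w.map mat).prod * hexMat Y) (192 ^ w.length * 15)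
  | [], _, i => by
    refine ⟨fun k => Y.get (i : ℕ) / 16 ^ (k : ℕ) % 16, fun k => ?_, ?_, fun k => ?_⟩
    · simp only [List.length_nil, pow_zero, one_mul]
      exact Nat.le_of_lt_succ (Nat.mod_lt _ (by norm_num))
    · rw [evalWord, Trie.get_map, widen_eq]
    · simp [hexMat, hexRow]
  | G :: w, h, i => by
    simp only [List.all_cons, Bool.and_eq_true] at h
    obtain ⟨f, hf1, hf2, hf3⟩ := repr_comb (repr_evalWord w h.2) (G.get (i : ℕ))
    refine ⟨f, fun k => (hf1 k).trans ?_, ?_, fun k => ?_⟩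
    · rw [List.length_cons, pow_succ, mul_comm (192 ^ w.length) 192, mul_assoc]
      exact Nat.mul_le_mul_right _ (small_get h.1 _)
    · rw [evalWord, Trie.get_map, hf2]
    · rw [hf3, List.map_cons, List.prod_cons, mul_assoc, Matrix.mul_apply_eq_vecMul]
      rfl

theorem sameRows_sound {X Y : Trie ℕ} : ∀ {n : ℕ}, sameRows X Y n = true →
    ∀ i < n, sameRow 78 (X.get i) (Y.get i) = true
  | 0, _, i, hi => absurd hi (by omega)
  | n + 1, h, i, hi => by
    simp only [sameRows, Bool.and_eq_true] at h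
    rcases Nat.lt_succ_iff_lt_or_eq.1 hi with h1 | rfl
    · exact sameRows_sound h.2 i h1
    · exact h.1

theorem checkWord_sound {w : List (Trie (List (ℕ × ℕ)))} {Y Z : Trie ℕ}
    (h : checkWord w Y Z = true) : (w.map mat).prod * hexMat Y = hexMat Z := by
  simp only [checkWord, Bool.and_eq_true] at h
  obtain ⟨⟨hl, hs⟩, hr⟩ := h
  ext i k
  obtain ⟨f, hf1, hf2, hf3⟩ := repr_evalWord (Y := Y) w hs i
  have hrow := sameRows_sound hr (i : ℕ) i.isLt
  rw [hf2] at hrow
  rw [← hf3 k]
  refine sameRow_sound 78 f _ (fun j => lt_of_le_of_lt (hf1 j) ?_) hrow k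
  calc 192 ^ w.length * 15 ≤ 192 ^ 9 * 15 :=
        Nat.mul_le_mul_right _ (Nat.pow_le_pow_right (by norm_num) (Nat.le_of_ble_eq_true hl))
    _ < Slot := by norm_num

end CfsgLib.Fi22Rep78
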